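-- helper13: project TSO (S5980), packages [RANK1] and [RANK1']: `a * rank N ≤ rank (1 ⊗ N)` and
-- `b * rank N ≤ rank (N ⊗ 1)`.
import Mathlib
import Cfsg.Agent.Lib.Helper57.TSO.Defs

set_option autoImplicit false

namespace Cfsg.Agent.Lib.Helper13.TSO

open Matrix Cfsg.Agent.Lib.Helper57.TSO
open scoped Kronecker

universe u

variable {F : Type u} [Field F]

/-- a lower bound for the rank from an injective linear map into the range -/
theorem rank_ge_of_range {ι : Type} [Fintype ι] [DecidableEq ι] {W : Type*} [AddCommGroup W]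
    [Module F W] [FiniteDimensional F W] (M : Matrix ι ι F) (T : W →ₗ[F] (ι → F))
    (hinj : Function.Injective T) (hr : ∀ x : W, ∃ y : ι → F, M *ᵥ y = T x) :
    Module.finrank F W ≤ M.rank := by
  have h1 : Module.finrank F (LinearMap.range T) = Module.finrank F W :=
    LinearMap.finrank_range_of_inj hinj
  have h2 : LinearMap.range T ≤ LinearMap.range M.mulVecLin := by
    rintro _ ⟨x, rfl⟩
    obtain ⟨y, hy⟩ := hr x
    exact ⟨y, hy⟩
  have h3 := Submodule.finrank_mono h2
  rw [h1] at h3
  exact h3

/-- [RANK1] -/
theorem pkgRank1 : PkgRank1.{u} := by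
  intro F _ a b N
  let T : (Fin a → ↥(LinearMap.range N.mulVecLin)) →ₗ[F] (Fin a × Fin b → F) :=
    { toFun := fun u p => (u p.1 : Fin b → F) p.2
      map_add' := by
        intro u u'
        funext p
        rfl
      map_smul' := by
        intro c u
        funext p
        rfl }
  have hT : ∀ (u : Fin a → ↥(LinearMap.range N.mulVecLin)) (p : Fin a × Fin b),
      T u p = (u p.1 : Fin b → F) p.2 := fun _ _ => rfl
  have key := rank_ge_of_range ((1 : Matrix (Fin a) (Fin a) F) ⊗ₖ N) T (by
    intro u u' h
    funext i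
    apply Subtype.ext
    funext j
    have := congrFun h (i, j)
    rw [hT, hT] at this
    exact this) (by
    intro u
    have hex : ∀ i : Fin a, ∃ x : Fin b → F, N *ᵥ x = (u i : Fin b → F) := fun i => (u i).2
    choose x hx using hex
    refine ⟨fun p => x p.1 p.2, ?_⟩
    funext ⟨i, j⟩
    rw [hT, ← hx i]
    simp [Matrix.mulVec, dotProduct, Fintype.sum_prod_type, Matrix.kroneckerMap_apply,
      Matrix.one_apply])
  have hfr : Module.finrank F (Fin a → ↥(LinearMap.range N.mulVecLin)) = a * N.rank := by
    rw [Module.finrank_pi_fintype]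
    simp [Matrix.rank]
  rw [hfr] at key
  exact key

/-- [RANK1'] -/
theorem pkgRank1' : PkgRank1'.{u} := by
  intro F _ a b N
  let T : (Fin b → ↥(LinearMap.range N.mulVecLin)) →ₗ[F] (Fin a × Fin b → F) :=
    { toFun := fun u p => (u p.2 : Fin a → F) p.1
      map_add' := by
        intro u u'
        funext p
        rfl
      map_smul' := by
        intro c u
        funext p
        rfl }
  have hT : ∀ (u : Fin b → ↥(LinearMap.range N.mulVecLin)) (p : Fin a × Fin b),
      T u p = (u p.2 : Fin a → F) p.1 := fun _ _ => rfl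
  have key := rank_ge_of_range (N ⊗ₖ (1 : Matrix (Fin b) (Fin b) F)) T (by
    intro u u' h
    funext j
    apply Subtype.ext
    funext i
    have := congrFun h (i, j)
    rw [hT, hT] at this
    exact this) (by
    intro u
    have hex : ∀ j : Fin b, ∃ x : Fin a → F, N *ᵥ x = (u j : Fin a → F) := fun j => (u j).2
    choose x hx using hex
    refine ⟨fun p => x p.2 p.1, ?_⟩
    funext ⟨i, j⟩
    rw [hT, ← hx j]
    simp [Matrix.mulVec, dotProduct, Fintype.sum_prod_type, Matrix.kroneckerMap_apply,
      Matrix.one_apply])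
  have hfr : Module.finrank F (Fin b → ↥(LinearMap.range N.mulVecLin)) = b * N.rank := by
    rw [Module.finrank_pi_fintype]
    simp [Matrix.rank]
  rw [hfr] at key
  exact key

end Cfsg.Agent.Lib.Helper13.TSO
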