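-- helper13: project TSO (S5980), packages [RANK3] and [RANK3']: lower bounds for the rank of
-- `A ⊗ B - 1` from a vector `v` with `v, A v, A² v` independent.
import Mathlib
import Cfsg.Agent.Lib.Helper57.TSO.Defs

set_option autoImplicit false

namespace Cfsg.Agent.Lib.Helper13.TSO

open Matrix Cfsg.Agent.Lib.Helper57.TSO
open scoped Kronecker

universe u

variable {F : Type u} [Field F] {a b : ℕ}

/-- the pure tensor `v ⊗ w` as a vector indexed by `Fin a × Fin b` -/
def tens (v : Fin a → F) (w : Fin b → F) : Fin a × Fin b → F := fun p => v p.1 * w p.2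

theorem kron_mulVec_tens (A : Matrix (Fin a) (Fin a) F) (B : Matrix (Fin b) (Fin b) F)
    (v : Fin a → F) (w : Fin b → F) : (A ⊗ₖ B) *ᵥ tens v w = tens (A *ᵥ v) (B *ᵥ w) := by
  funext ⟨i, j⟩
  simp only [Matrix.mulVec, dotProduct, tens, Fintype.sum_prod_type, Matrix.kroneckerMap_apply,
    Finset.sum_mul_sum]
  apply Finset.sum_congr rfl
  intro i' _
  apply Finset.sum_congr rfl
  intro j' _
  ring

/-- a lower bound for the rank from an injective composite -/
theorem rank_ge_of_injective {ι : Type} [Fintype ι] [DecidableEq ι] {W : Type*} [AddCommGroup W]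
    [Module F W] [FiniteDimensional F W] (M : Matrix ι ι F) (T : W →ₗ[F] (ι → F))
    (h : ∀ x : W, M *ᵥ T x = 0 → x = 0) : Module.finrank F W ≤ M.rank := by
  have hinj : Function.Injective (M.mulVecLin ∘ₗ T) := by
    rw [injective_iff_map_eq_zero]
    intro x hx
    exact h x hx
  have h1 : Module.finrank F (LinearMap.range (M.mulVecLin ∘ₗ T)) = Module.finrank F W :=
    LinearMap.finrank_range_of_inj hinj
  have h2 : LinearMap.range (M.mulVecLin ∘ₗ T) ≤ LinearMap.range M.mulVecLin :=
    LinearMap.range_comp_le_range _ _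
  have h3 := Submodule.finrank_mono h2
  rw [h1] at h3
  exact h3

/-- [RANK3] -/
theorem pkgRank3 : PkgRank3.{u} := by
  intro F _ a b A B _ v hv
  let T : ((Fin b → F) × (Fin b → F)) →ₗ[F] (Fin a × Fin b → F) :=
    { toFun := fun w => tens v w.1 + tens (A *ᵥ v) w.2
      map_add' := by
        intro w w'
        funext p
        simp only [tens, Prod.fst_add, Prod.snd_add, Pi.add_apply]
        ring
      map_smul' := by
        intro c w
        funext p
        simp only [tens, Prod.smul_fst, Prod.smul_snd, Pi.add_apply, Pi.smul_apply, smul_eq_mul,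
          RingHom.id_apply]
        ring }
  have hT : ∀ w : (Fin b → F) × (Fin b → F), T w = tens v w.1 + tens (A *ᵥ v) w.2 := fun _ => rfl
  have key := rank_ge_of_injective (A ⊗ₖ B - 1) T (by
    intro w hw
    rw [hT, Matrix.sub_mulVec, Matrix.one_mulVec, Matrix.mulVec_add, kron_mulVec_tens,
      kron_mulVec_tens] at hw
    have hj : ∀ j : Fin b, w.1 j = 0 ∧ (B *ᵥ w.1) j - w.2 j = 0 := by
      intro j
      have := hv (-(w.1 j)) ((B *ᵥ w.1) j - w.2 j) ((B *ᵥ w.2) j) (by
        funext i
        have e := congrFun hw (i, j)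
        simp only [tens, Pi.add_apply, Pi.sub_apply, Pi.zero_apply] at e
        simp only [Pi.add_apply, Pi.smul_apply, smul_eq_mul, Pi.zero_apply]
        linear_combination e)
      exact ⟨neg_eq_zero.1 this.1, this.2.1⟩
    have h1 : w.1 = 0 := funext fun j => (hj j).1
    have h2 : w.2 = 0 := by
      funext j
      have := (hj j).2
      rw [h1, Matrix.mulVec_zero] at this
      simpa using this
    exact Prod.ext h1 h2)
  have hfr : Module.finrank F ((Fin b → F) × (Fin b → F)) = 2 * b := by
    rw [Module.finrank_prod, Module.finrank_fintype_fun_eq_card, Fintype.card_fin]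
    ring
  rw [hfr] at key
  exact key

/-- [RANK3'] -/
theorem pkgRank3' : PkgRank3'.{u} := by
  intro F _ a b A B _ w hw
  let T : ((Fin a → F) × (Fin a → F)) →ₗ[F] (Fin a × Fin b → F) :=
    { toFun := fun u => tens u.1 w + tens u.2 (B *ᵥ w)
      map_add' := by
        intro u u'
        funext p
        simp only [tens, Prod.fst_add, Prod.snd_add, Pi.add_apply]
        ring
      map_smul' := by
        intro c u
        funext p
        simp only [tens, Prod.smul_fst, Prod.smul_snd, Pi.add_apply, Pi.smul_apply, smul_eq_mul,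
          RingHom.id_apply]
        ring }
  have hT : ∀ u : (Fin a → F) × (Fin a → F), T u = tens u.1 w + tens u.2 (B *ᵥ w) := fun _ => rfl
  have key := rank_ge_of_injective (A ⊗ₖ B - 1) T (by
    intro u hu
    rw [hT, Matrix.sub_mulVec, Matrix.one_mulVec, Matrix.mulVec_add, kron_mulVec_tens,
      kron_mulVec_tens] at hu
    have hi : ∀ i : Fin a, u.1 i = 0 ∧ (A *ᵥ u.1) i - u.2 i = 0 := by
      intro i
      have := hw (-(u.1 i)) ((A *ᵥ u.1) i - u.2 i) ((A *ᵥ u.2) i) (by
        funext j
        have e := congrFun hu (i, j)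
        simp only [tens, Pi.add_apply, Pi.sub_apply, Pi.zero_apply] at e
        simp only [Pi.add_apply, Pi.smul_apply, smul_eq_mul, Pi.zero_apply]
        linear_combination e)
      exact ⟨neg_eq_zero.1 this.1, this.2.1⟩
    have h1 : u.1 = 0 := funext fun i => (hi i).1
    have h2 : u.2 = 0 := by
      funext i
      have := (hi i).2
      rw [h1, Matrix.mulVec_zero] at this
      simpa using this
    exact Prod.ext h1 h2)
  have hfr : Module.finrank F ((Fin a → F) × (Fin a → F)) = 2 * a := by
    rw [Module.finrank_prod, Module.finrank_fintype_fun_eq_card, Fintype.card_fin]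
    ring
  rw [hfr] at key
  exact key

end Cfsg.Agent.Lib.Helper13.TSO
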